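import Cfsg.Agent.GlaubermanZJ.LinearQuadratic
import Mathlib.LinearAlgebra.Eigenspace.Minpoly
import Mathlib.FieldTheory.Finite.GaloisField
import Mathlib.Algebra.Polynomial.Splits

/-!
Two quadratically acting generators with a split annihilating polynomial of their product: a map to
`SL(2, K)` over the given field.
-/

set_option autoImplicit false

namespace CfsgLib.QuadraticSL2

open CfsgLib.GlaubermanZJ (pow_p_eq_one mem_of_closure_pair sl2_of_finrank_two)

variable {K : Type*} [Field K] {H : Type*} [Group H]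

theorem aeval_comm {V W : Type*} [AddCommGroup V] [Module K V] [AddCommGroup W] [Module K W]
    (j : V →ₗ[K] W) (T : Module.End K W) (S : Module.End K V) (h : ∀ v, j (S v) = T (j v))
    (f : Polynomial K) (v : V) : j (Polynomial.aeval S f v) = Polynomial.aeval T f (j v) := by
  induction f using Polynomial.induction_on' with
  | add f g hf hg => simp [hf, hg]
  | monomial n c =>
    simp only [Polynomial.aeval_monomial, Module.End.mul_apply, Module.algebraMap_end_apply, map_smul]
    congr 1
    induction n generalizing v with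
    | zero => simp
    | succ n ih => simp [pow_succ, ih, h]

theorem exists_eigenvalue_of_split {W : Type*} [AddCommGroup W] [Module K W] [FiniteDimensional K W]
    [Nontrivial W] {f : Polynomial K} (hf : f.Splits) (hf0 : f ≠ 0) (T : Module.End K W)
    (h : Polynomial.aeval T f = 0) : ∃ μ, T.HasEigenvalue μ := by
  have hs : (minpoly K T).Splits := hf.of_dvd hf0 (minpoly.dvd K T h)
  have hd : (minpoly K T).degree ≠ 0 :=
    (minpoly.degree_pos (Algebra.IsIntegral.isIntegral T)).ne'
  obtain ⟨μ, hμ⟩ := hs.exists_eval_eq_zero hd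
  exact ⟨μ, Module.End.hasEigenvalue_of_isRoot hμ⟩

/-- Two generators acting quadratically with non-`p`-group image give a map to `SL(2, K)` with the same
properties. -/
theorem exists_sl2_of_split {p : ℕ} [Fact p.Prime] [CharP K p] [Finite H] {a b : H}
    {f : Polynomial K} (hf : f.Splits) (hf0 : f ≠ 0)
    (hgen : Subgroup.closure ({a, b} : Set H) = ⊤) :
    ∀ {W : Type*} [AddCommGroup W] [Module K W] [FiniteDimensional K W] (ρ : H →* Module.End K W),
      (ρ a - 1) * (ρ a - 1) = 0 → (ρ b - 1) * (ρ b - 1) = 0 →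
      Polynomial.aeval (ρ (a * b)) f = 0 →
      (¬ ∀ h : H, ∃ k, ρ (h ^ p ^ k) = 1) →
      ∃ φ : H →* Matrix.SpecialLinearGroup (Fin 2) K, φ a ^ p = 1 ∧ φ b ^ p = 1 ∧
        ¬ ∀ h : H, ∃ k, φ (h ^ p ^ k) = 1 := by
  intro W _ _ _ ρ
  induction hn : Module.finrank K W using Nat.strong_induction_on generalizing W with
  | _ n ih =>
  intro ha hb hfab hnp
  have hap : ρ (a ^ p) = 1 := by rw [map_pow, pow_p_eq_one ha]
  have hbp : ρ (b ^ p) = 1 := by rw [map_pow, pow_p_eq_one hb]
  by_cases hred : ∃ U : Submodule K W, U ≠ ⊥ ∧ U ≠ ⊤ ∧ (∀ v ∈ U, ρ a v ∈ U) ∧ ∀ v ∈ U, ρ b v ∈ U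
  · obtain ⟨U, hU0, hU1, hUa, hUb⟩ := hred
    have hU : ∀ h : H, ∀ v ∈ U, ρ h v ∈ U :=
      mem_of_closure_pair hgen (fun v hv => by simpa using hv)
        (fun x y hx hy v hv => by rw [map_mul]; exact hx _ (hy v hv)) hUa hUb
    let ρ₁ : H →* Module.End K U :=
      { toFun := fun h => (ρ h).restrict (hU h)
        map_one' := LinearMap.ext fun v => Subtype.ext (by simp [LinearMap.restrict_apply])
        map_mul' := fun x y => LinearMap.ext fun v => Subtype.ext (by simp [LinearMap.restrict_apply]) }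
    let ρ₂ : H →* Module.End K (W ⧸ U) :=
      { toFun := fun h => Submodule.mapQ U U (ρ h) (hU h)
        map_one' := Submodule.linearMap_qext _ (LinearMap.ext fun v => by simp)
        map_mul' := fun x y => Submodule.linearMap_qext _ (LinearMap.ext fun v => by simp) }
    have hq1 : ∀ x : H, (ρ x - 1) * (ρ x - 1) = 0 → (ρ₁ x - 1) * (ρ₁ x - 1) = 0 := by
      intro x hx
      refine LinearMap.ext fun v => Subtype.ext ?_
      simpa [ρ₁, LinearMap.restrict_apply] using LinearMap.congr_fun hx (v : W)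
    have hf1 : Polynomial.aeval (ρ₁ (a * b)) f = 0 := by
      refine LinearMap.ext fun v => Subtype.ext ?_
      show ((Polynomial.aeval (ρ₁ (a * b)) f v : U) : W) = 0
      exact (aeval_comm U.subtype (ρ (a * b)) (ρ₁ (a * b)) (fun _ => rfl) f v).trans (by rw [hfab, LinearMap.zero_apply])
    have hf2 : Polynomial.aeval (ρ₂ (a * b)) f = 0 := by
      refine Submodule.linearMap_qext _ (LinearMap.ext fun v => ?_)
      show Polynomial.aeval (ρ₂ (a * b)) f (U.mkQ v) = 0
      rw [← aeval_comm U.mkQ (ρ₂ (a * b)) (ρ (a * b)) (fun _ => rfl), hfab, LinearMap.zero_apply,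
        map_zero]
    have hq2 : ∀ x : H, (ρ x - 1) * (ρ x - 1) = 0 → (ρ₂ x - 1) * (ρ₂ x - 1) = 0 := by
      intro x hx
      refine Submodule.linearMap_qext _ (LinearMap.ext fun v => ?_)
      have := congrArg (Submodule.Quotient.mk (p := U)) (LinearMap.congr_fun hx v)
      simpa [ρ₂] using this
    by_cases h₁ : ∀ h : H, ∃ k, ρ₁ (h ^ p ^ k) = 1
    · have hlt : Module.finrank K (W ⧸ U) < n := by
        have := U.finrank_quotient_add_finrank
        have hnn : Module.finrank K W = n := hn
        have : 0 < Module.finrank K U := by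
          rw [Module.finrank_pos_iff]
          exact Submodule.nontrivial_iff_ne_bot.2 hU0
        omega
      refine ih _ hlt (W := W ⧸ U) ρ₂ rfl (hq2 a ha) (hq2 b hb) hf2 fun h₂ => hnp fun h => ?_
      obtain ⟨k, hk⟩ := h₁ h
      obtain ⟨l, hl⟩ := h₂ (h ^ p ^ k)
      rw [← pow_mul, ← pow_add] at hl
      refine ⟨k + l + 1, ?_⟩
      rw [pow_succ, pow_mul, map_pow]
      refine pow_p_eq_one (LinearMap.ext fun v => ?_)
      have hmem : ρ (h ^ p ^ (k + l)) v - v ∈ U := by
        rw [← Submodule.Quotient.eq]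
        exact LinearMap.congr_fun hl (Submodule.Quotient.mk v)
      have hfix : ∀ u ∈ U, ρ (h ^ p ^ (k + l)) u = u := by
        intro u hu
        have h3 : ρ₁ (h ^ p ^ (k + l)) = 1 := by
          rw [pow_add, pow_mul, map_pow, hk, one_pow]
        exact congrArg Subtype.val (LinearMap.congr_fun h3 ⟨u, hu⟩)
      simp only [Module.End.mul_apply, LinearMap.sub_apply, Module.End.one_apply, LinearMap.zero_apply]
      rw [hfix _ hmem, sub_self]
    · refine ih _ (hn ▸ Submodule.finrank_lt hU1) (W := U) ρ₁ rfl (hq1 a ha) (hq1 b hb) hf1 h₁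
  -- irreducible case
  push Not at hred
  set A := LinearMap.ker (ρ a - 1) with hA
  set B := LinearMap.ker (ρ b - 1) with hB
  have memA : ∀ v, v ∈ A ↔ ρ a v = v := fun v => by simp [hA, sub_eq_zero]
  have memB : ∀ v, v ∈ B ↔ ρ b v = v := fun v => by simp [hB, sub_eq_zero]
  have hAB : A ⊓ B = ⊥ := by
    by_contra hne
    by_cases htop : A ⊓ B = ⊤
    · apply hnp
      intro h
      refine ⟨0, ?_⟩
      rw [pow_zero, pow_one]
      refine mem_of_closure_pair hgen (P := fun x => ρ x = 1) (map_one ρ)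
        (fun x y hx hy => by rw [map_mul, hx, hy, one_mul]) ?_ ?_ h
      · exact LinearMap.ext fun v => (memA v).1 (htop ▸ Submodule.mem_top : v ∈ A ⊓ B).1
      · exact LinearMap.ext fun v => (memB v).1 (htop ▸ Submodule.mem_top : v ∈ A ⊓ B).2
    · obtain ⟨v, hv, hv'⟩ := hred _ hne htop (fun v hv => by rwa [(memA v).1 hv.1])
      exact hv' (by rwa [(memB v).1 hv.2])
  have hrkA : LinearMap.range (ρ a - 1) ≤ A := by
    rintro _ ⟨v, rfl⟩; exact LinearMap.congr_fun ha v
  have hrkB : LinearMap.range (ρ b - 1) ≤ B := by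
    rintro _ ⟨v, rfl⟩; exact LinearMap.congr_fun hb v
  have e1 := (ρ a - 1).finrank_range_add_finrank_ker
  have e2 := (ρ b - 1).finrank_range_add_finrank_ker
  have e3 := Submodule.finrank_mono hrkA
  have e4 := Submodule.finrank_mono hrkB
  have e5 := Submodule.finrank_sup_add_finrank_inf_eq A B
  have e6 := Submodule.finrank_le (A ⊔ B)
  rw [hAB, finrank_bot] at e5
  rw [← hA] at e1
  rw [← hB] at e2
  have hsup : A ⊔ B = ⊤ := Submodule.eq_top_of_finrank_eq (by omega)
  -- an eigenvector of `a b`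
  have hne : Nontrivial W := by
    by_contra hns
    rw [not_nontrivial_iff_subsingleton] at hns
    exact hnp fun h => ⟨0, LinearMap.ext fun v => Subsingleton.elim _ _⟩
  obtain ⟨lam, hlam⟩ := exists_eigenvalue_of_split hf hf0 (ρ (a * b)) hfab
  obtain ⟨v, hv, hv0⟩ := hlam.exists_hasEigenvector
  rw [Module.End.mem_eigenspace_iff] at hv
  obtain ⟨x, hx, y, hy, rfl⟩ := Submodule.mem_sup.1 (hsup ▸ Submodule.mem_top : v ∈ A ⊔ B)
  have hax := (memA x).1 hx
  have hby := (memB y).1 hy
  set N : W := ρ b x - x with hN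
  set M : W := ρ a y - y with hM
  have hNB : N ∈ B := hrkB ⟨x, rfl⟩
  have hMA : M ∈ A := hrkA ⟨y, rfl⟩
  set MN : W := ρ a N - N with hMN
  have hMNA : MN ∈ A := hrkA ⟨N, rfl⟩
  have hexp : ρ (a * b) (x + y) = (x + M + MN) + (N + y) := by
    rw [map_mul, Module.End.mul_apply, map_add, hby, show ρ b x = x + N by rw [hN]; abel, map_add, map_add,
      hax, hMN, hM]
    abel
  rw [hexp, smul_add] at hv
  have hsplit : x + M + MN = lam • x ∧ N + y = lam • y := by
    have h0 : x + M + MN - lam • x = lam • y - (N + y) := by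
      rw [sub_eq_sub_iff_add_eq_add, hv]; abel
    have hm : x + M + MN - lam • x ∈ A ⊓ B := by
      refine ⟨A.sub_mem (A.add_mem (A.add_mem hx hMA) hMNA) (A.smul_mem _ hx), ?_⟩
      rw [SetLike.mem_coe, h0]
      exact B.sub_mem (B.smul_mem _ hy) (B.add_mem hNB hy)
    rw [hAB, Submodule.mem_bot] at hm
    exact ⟨sub_eq_zero.1 hm, (sub_eq_zero.1 (h0 ▸ hm : lam • y - (N + y) = 0)).symm⟩
  obtain ⟨hA2, hB2⟩ := hsplit
  have hNy : N = (lam - 1) • y := by rw [sub_smul, one_smul, ← hB2]; abel
  have hMNy : MN = (lam - 1) • M := by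
    rw [hMN, hNy, map_smul, ← smul_sub, hM]
  have hlam0 : lam ≠ 0 := by
    rintro rfl
    have h1 : ρ (a * b) (x + y) = 0 := by rw [hexp, hv]; simp
    have h2 := congrArg (fun w => ρ ((a * b)⁻¹) w) h1
    simp only [map_zero] at h2
    rw [← Module.End.mul_apply, ← map_mul, inv_mul_cancel, map_one, Module.End.one_apply] at h2
    exact hv0 h2
  have hMx : M = ((lam - 1) / lam) • x := by
    have h1 : lam • M = (lam - 1) • x := by
      rw [sub_smul, one_smul, ← hA2, hMNy, sub_smul, one_smul]; abel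
    rw [div_eq_inv_mul, ← smul_smul, ← h1, smul_smul, inv_mul_cancel₀ hlam0, one_smul]
  -- the invariant plane
  set P : Submodule K W := Submodule.span K (Set.range ![x, y]) with hP
  have hxP : x ∈ P := Submodule.subset_span ⟨0, rfl⟩
  have hyP : y ∈ P := Submodule.subset_span ⟨1, rfl⟩
  have hay : ρ a y = ((lam - 1) / lam) • x + y := by rw [← hMx, hM]; abel
  have hbx : ρ b x = x + (lam - 1) • y := by rw [← hNy, hN]; abel
  have hPa : ∀ w ∈ P, ρ a w ∈ P := by
    intro w hw
    have : P ≤ P.comap (ρ a) := by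
      rw [hP, Submodule.span_le]
      rintro _ ⟨i, rfl⟩
      fin_cases i
      · show ρ a x ∈ P
        rw [hax]; exact hxP
      · show ρ a y ∈ P
        rw [hay]; exact P.add_mem (P.smul_mem _ hxP) hyP
    exact this hw
  have hPb : ∀ w ∈ P, ρ b w ∈ P := by
    intro w hw
    have : P ≤ P.comap (ρ b) := by
      rw [hP, Submodule.span_le]
      rintro _ ⟨i, rfl⟩
      fin_cases i
      · show ρ b x ∈ P
        rw [hbx]; exact P.add_mem hxP (P.smul_mem _ hyP)
      · show ρ b y ∈ P
        rw [hby]; exact hyP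
    exact this hw
  have hPtop : P = ⊤ := by
    by_contra hne'
    have hP0 : P ≠ ⊥ := fun h => hv0 (by
      have hx0 : x ∈ P := hxP
      have hy0 : y ∈ P := hyP
      rw [h, Submodule.mem_bot] at hx0 hy0
      rw [hx0, hy0, add_zero])
    obtain ⟨w, hw, hw'⟩ := hred P hP0 hne' hPa
    exact hw' (hPb w hw)
  have hfr : Module.finrank K W ≤ 2 := by
    rw [← finrank_top K W, ← hPtop, hP]
    exact (finrank_range_le_card _).trans_eq (Fintype.card_fin 2)
  have hpos : 0 < Module.finrank K W := Module.finrank_pos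
  have hfr2 : Module.finrank K W = 2 := by omega
  have hli : LinearIndependent K ![x, y] :=
    (linearIndependent_iff_card_le_finrank_span).2 (by
      show Fintype.card (Fin 2) ≤ Module.finrank K P
      rw [hPtop, finrank_top, hfr2, Fintype.card_fin])
  let e : Module.Basis (Fin 2) K W := Module.Basis.mk hli hPtop.ge
  have he0 : e 0 = x := by simp [e]
  have he1 : e 1 = y := by simp [e]
  refine sl2_of_finrank_two hgen ρ e ?_ ?_ hap hbp hnp
  · rw [Matrix.det_fin_two]
    simp only [LinearMap.toMatrix_apply, he0, he1]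
    rw [hax, hay, map_add, map_smul, ← he0, ← he1]
    simp
  · rw [Matrix.det_fin_two]
    simp only [LinearMap.toMatrix_apply, he0, he1]
    rw [hby, hbx, map_add, map_smul, ← he0, ← he1]
    simp

/-- Over a finite field: the `p'`-part of the order of the product divides `q - 1`. -/
theorem exists_sl2_of_finite_field [Fintype K] {p : ℕ} [Fact p.Prime] [CharP K p] [Finite H] {a b : H}
    (hgen : Subgroup.closure ({a, b} : Set H) = ⊤) {e k : ℕ} (he : orderOf (a * b) = p ^ e * k)
    (hk : k ∣ Fintype.card K - 1) {W : Type*} [AddCommGroup W] [Module K W] [FiniteDimensional K W]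
    (ρ : H →* Module.End K W) (ha : (ρ a - 1) * (ρ a - 1) = 0) (hb : (ρ b - 1) * (ρ b - 1) = 0)
    (hnp : ¬ ∀ h : H, ∃ k, ρ (h ^ p ^ k) = 1) :
    ∃ φ : H →* Matrix.SpecialLinearGroup (Fin 2) K, φ a ^ p = 1 ∧ φ b ^ p = 1 ∧
      ¬ ∀ h : H, ∃ k, φ (h ^ p ^ k) = 1 := by
  have hq : 1 < Fintype.card K := Fintype.one_lt_card
  have hsp : ((Polynomial.X : Polynomial K) ^ Fintype.card K - Polynomial.X).Splits := by
    letI := ZMod.algebra K p
    have h := FiniteField.splits_X_pow_card_sub_X p (K := K)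
    simpa using h
  have hne : (Polynomial.X : Polynomial K) ^ Fintype.card K - Polynomial.X ≠ 0 :=
    FiniteField.X_pow_card_sub_X_ne_zero K hq
  refine exists_sl2_of_split (hsp.pow (p ^ e)) (pow_ne_zero _ hne) hgen ρ ha hb ?_ hnp
  rw [sub_pow_char_pow (p := p) (Polynomial.X ^ Fintype.card K) Polynomial.X e, map_sub, map_pow, map_pow,
    map_pow, Polynomial.aeval_X, ← pow_mul, ← map_pow, ← map_pow, sub_eq_zero]
  congr 1
  conv_lhs => rw [show Fintype.card K * p ^ e = p ^ e * (Fintype.card K - 1) + p ^ e by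
    rw [← Nat.mul_succ, mul_comm, Nat.succ_eq_add_one, Nat.sub_add_cancel hq.le]]
  obtain ⟨d, hd⟩ := hk
  rw [pow_add, hd, ← mul_assoc, pow_mul, ← he, pow_orderOf_eq_one, one_pow, one_mul]

end CfsgLib.QuadraticSL2
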